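import Cfsg.Agent.H997.PF.Rows

/-!
# S3522-EXC (task 3006, helper778): base

* `PG T` : every proper subgroup of `T` misses a prime divisor of `|T|`;
* `PG.congr`, `PG.row`, `PG.of_full`;
* `Row.kill_dvd_two` : `|Out T| ∣ 2`.
-/

set_option autoImplicit false

namespace Cfsg.Agent.H778.PFX

open Cfsg.Agent.H938.Sax Cfsg.Agent.H997.PF

/-- every proper subgroup misses a prime divisor of the order -/
def PG (T : Type*) [Group T] : Prop := ∀ K : Subgroup T, K ≠ ⊤ → PGap T K

theorem PG.congr {T S : Type*} [Group T] [Group S] (e : T ≃* S) (h : PG T) : PG S := fun _ hK =>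
  (h _ (comap_ne_top e hK)).congr e

theorem PG.row {T : Type*} [Group T] (h : PG T) : Row T := Row.pgap h

theorem PG.of_full {T : Type*} [Group T]
    (h : ∀ R : Subgroup T, (∀ r : ℕ, r.Prime → r ∣ Nat.card T → r ∣ Nat.card R) → R = ⊤) : PG T := fun K hK => by
  by_contra hn
  exact hK (h K fun r hr hd => by
    by_contra hc
    exact hn ⟨r, hr, hd, hc⟩)

theorem kill_dvd_two {T : Type*} [Group T] (h2 : Nat.card (Cfsg.Out T) ∣ 2)
    (h : ∀ K : Subgroup T, K ≠ ⊤ → Kill T 1 K) : Row T := by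
  rcases (Nat.dvd_prime Nat.prime_two).1 h2 with h3 | h3
  · exact .out h3
  · exact .kill_two h3 h

end Cfsg.Agent.H778.PFX
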