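import Cfsg.Agent.H778.PFX.Base
import Cfsg.Agent.H290.ElE8
import Cfsg.Agent.H290.ElE7
import Cfsg.Agent.H190.Exc.RowE6
import Cfsg.Agent.S4008
import Cfsg.Agent.H566.Main

/-!
# S3522-EXC (task 3006, helper778): `E₆(q)`, `²E₆(q)`, `E₇(q)`, `E₈(q)`

The theorems `full_e6`, `full_te6` (helper190), `full_E7`, `full_E8` (helper290) in the form `PG` : every proper subgroup
misses a prime divisor of the order.
-/

set_option autoImplicit false

namespace Cfsg.Agent.H778.PFX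

open Cfsg Cfsg.Lie Cfsg.Agent.OrdDiv Cfsg.Agent.H436 Cfsg.Agent.H290.ElEng Cfsg.Agent.H290.ElRich
open Cfsg.Agent.H264.FKS (Full)
open Cfsg.Agent.H938.Sax Cfsg.Agent.H997.PF

/-- all simple groups (in `Type`) are known -/
abbrev Kn : Prop := ∀ (X : Type) [Group X] [Finite X] [IsSimpleGroup X], Cfsg.IsKnownSimple' X

theorem richFix (hK : Kn) : RichFix.{0} :=
  fun _ _ _ _ _ h1 h2 h3 => (H566.rich_sub (fun X _ _ _ => hK X) h1 h2 h3).1

theorem asThm : ASThm.{0} :=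
  fun _ _ _ h1 h2 r h3 h4 h5 h6 R _ h7 h8 => S4008.result h1 h2 r h3 h4 h5 h6 R h7 h8

theorem named (tab : OrderTable.{0}) (hK : Kn) (S : Type) [Group S] [Finite S] [IsSimpleGroup S]
    (hna : ¬ IsMulCommutative S) : ∃ g, IsNamed g S :=
  exists_named tab (hK S) fun h => hna ⟨⟨h⟩⟩

/-- **`E₈(q)`** -/
theorem pg_e8 (tab : OrderTable.{0}) (hK : Kn) {T : Type*} [Group T] (h : IsoE8 T) : PG T := by
  obtain ⟨F, _, _, ⟨e⟩⟩ := h
  have hT : IsNamed (.e8 (Fintype.card F)) ↥(chevE8.group F) := by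
    refine .mk' ⟨F, inferInstance, inferInstance, rfl, ⟨MulEquiv.refl _⟩⟩ Fintype.isPrimePow_card_of_field ?_
    change 1 * _ = _ ^ 120 * _
    rw [tab.e8 F _ rfl]; ring
  have hpp : IsPrimePow (Fintype.card F) := Fintype.isPrimePow_card_of_field
  obtain ⟨p, f, hp, hf, hpf⟩ := (isPrimePow_nat_iff _).1 hpp
  rw [← hpf] at hT
  exact PG.congr e.symm (PG.of_full fun R hR => H290.ElE8.full_E8 asThm (richFix hK) (named tab hK) hp hf hT hR)

/-- **`E₇(q)`** -/
theorem pg_e7 (tab : OrderTable.{0}) (hK : Kn) {T : Type*} [Group T] (h : IsoE7 T) : PG T := by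
  obtain ⟨F, _, _, ⟨e⟩⟩ := h
  have hT : IsNamed (.e7 (Fintype.card F)) ↥(chevE7.group F) := by
    refine .mk' ⟨F, inferInstance, inferInstance, rfl, ⟨MulEquiv.refl _⟩⟩ Fintype.isPrimePow_card_of_field ?_
    change Nat.gcd 2 (Fintype.card F - 1) * _ = _ ^ 63 * _
    rw [tab.e7 F _ rfl]; ring
  have hpp : IsPrimePow (Fintype.card F) := Fintype.isPrimePow_card_of_field
  obtain ⟨p, f, hp, hf, hpf⟩ := (isPrimePow_nat_iff _).1 hpp
  rw [← hpf] at hT
  exact PG.congr e.symm (PG.of_full fun R hR => H290.ElE7.full_E7 asThm (richFix hK) (named tab hK) hp hf hT hR)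

/-- **`E₆(q)`** -/
theorem pg_e6 (tab : OrderTable.{0}) (hK : Kn) {T : Type*} [Group T] (h : IsoChevE6 T) : PG T := by
  obtain ⟨F, _, _, ⟨e⟩⟩ := h
  exact PG.congr e.symm (PG.of_full fun R hR => H190.Exc.full_e6 tab hK asThm (richFix hK) hR)

/-- **`²E₆(q)`** -/
theorem pg_te6 (tab : OrderTable.{0}) (hK : Kn) {T : Type*} [Group T] (h : Iso2E6 T) : PG T := by
  obtain ⟨F, _, _, q, hq, hF, ⟨e⟩⟩ := h
  exact PG.congr e.symm (PG.of_full fun R hR => H190.Exc.full_te6 tab hK asThm (richFix hK) hq hF hR)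

theorem row_e6 (tab : OrderTable.{0}) (hK : Kn) {T : Type*} [Group T] (h : IsoChevE6 T) : Row T :=
  (pg_e6 tab hK h).row

theorem row_2e6 (tab : OrderTable.{0}) (hK : Kn) {T : Type*} [Group T] (h : Iso2E6 T) : Row T :=
  (pg_te6 tab hK h).row

theorem row_e7 (tab : OrderTable.{0}) (hK : Kn) {T : Type*} [Group T] (h : IsoE7 T) : Row T :=
  (pg_e7 tab hK h).row

theorem row_e8 (tab : OrderTable.{0}) (hK : Kn) {T : Type*} [Group T] (h : IsoE8 T) : Row T :=
  (pg_e8 tab hK h).row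

end Cfsg.Agent.H778.PFX
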